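import Cfsg.Agent.H770.CY.Defs
import Cfsg.Agent.H668.CharPeel
import Cfsg.Agent.H464.PermIrr
import Cfsg.Agent.H145.BR.Count
import Cfsg.Agent.Characters.GaloisBasic

/-!
# S4829, (L1): the row from a permutation character (helper118)

* `witA_of_perm` : `A` acts on `Ω`, `S` transitive, `p ∣ |Ω|`, the permutation character of `S` multiplicity free with
  constituents `Cyc p`: the witness `permutation character of A - 1`;
* `witA_of_subgroup`, `rowA_of_subgroup` : `Ω` = the conjugates of a self-normalizing `H ≤ S`, all `a(H)` conjugate to `H`.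
-/

set_option autoImplicit false
set_option linter.unusedSectionVars false

open Subgroup MulAction

namespace Cfsg.Agent.H118.PC

open Cfsg Cfsg.Agent.H770.CY Cfsg.Agent.Characters Cfsg.Agent.Characters.Core

universe u v

/-- the permutation character -/
noncomputable def pch (G : Type u) [Group G] (X : Type v) [MulAction G X] : G → ℂ := fun g => (Nat.card (fixedBy X g) : ℂ)

theorem isCharacter_pch (G : Type u) [Group G] (X : Type v) [MulAction G X] [Finite X] : IsCharacter G (pch G X) :=
  H464.PermIrr.isCharacter_pc G X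

theorem pch_one (G : Type u) [Group G] (X : Type v) [MulAction G X] : pch G X 1 = (Nat.card X : ℂ) := by
  have h : fixedBy X (1 : G) = Set.univ := Set.eq_univ_of_forall fun x => one_smul G x
  rw [pch, h, Nat.card_coe_set_eq, Set.ncard_univ]

theorem mul_eq {G : Type u} [Group G] [Fintype G] (f g : G → ℂ) : mul f g = classInner f g := rfl

/-- powers prime to the order -/
theorem pch_pow {G : Type u} [Group G] [Finite G] (X : Type v) [MulAction G X] {k : ℕ} (hk : k.Coprime (Nat.card G)) (g : G) :
    pch G X (g ^ k) = pch G X g := by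
  unfold pch
  have h : fixedBy X (g ^ k) = fixedBy X g := by
    ext x
    rw [mem_fixedBy, mem_fixedBy]
    constructor
    · intro h1
      obtain ⟨j, hj⟩ := exists_pow_eq_self_of_coprime (x := g) (n := k)
        (Nat.Coprime.coprime_dvd_right (orderOf_dvd_natCard g) hk)
      have h2 : (g ^ k) ^ j ∈ stabilizer G x := Subgroup.pow_mem _ (mem_stabilizer_iff.2 h1) j
      rw [hj] at h2
      exact mem_stabilizer_iff.1 h2
    · intro h1
      have h2 : g ^ k ∈ stabilizer G x := Subgroup.pow_mem _ (mem_stabilizer_iff.2 h1) k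
      exact mem_stabilizer_iff.1 h2
  rw [h]

/-- the multiplicity of the trivial character for a transitive action -/
theorem inner_one {G : Type u} [Group G] [Fintype G] (X : Type v) [Finite X] [Nonempty X] [MulAction G X]
    (ht : ∀ a b : X, ∃ g : G, g • a = b) : classInner (pch G X) (fun _ : G => (1 : ℂ)) = 1 := by
  have h1 : classInner (pch G X) (fun _ : G => (1 : ℂ)) = (Nat.card (orbitRel.Quotient G X) : ℂ) :=
    H145.BR.classInner_permC_one X
  have h2 : Nat.card (orbitRel.Quotient G X) = 1 := by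
    rw [Nat.card_eq_one_iff_unique]
    refine ⟨⟨fun a b => ?_⟩, ⟨Quotient.mk _ (Classical.arbitrary X)⟩⟩
    induction a using Quotient.inductionOn with
    | h a =>
      induction b using Quotient.inductionOn with
      | h b =>
        apply Quotient.sound
        obtain ⟨g, hg⟩ := ht b a
        exact ⟨g, hg⟩
  rw [h1, h2, Nat.cast_one]

section

variable {p : ℕ} [hp : Fact p.Prime] {M : Ideal AlgInt} {S : Type u} [Group S] [Fintype S] {A : Subgroup (MulAut S)}
  (hA : ∀ s : S, MulAut.conj s ∈ A)

/-- `S → A` -/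
def toA : S →* A where
  toFun s := ⟨MulAut.conj s, hA s⟩
  map_one' := Subtype.ext (map_one _)
  map_mul' _ _ := Subtype.ext (map_mul _ _ _)

/-- **the witness from a permutation character** -/
theorem witA_of_perm (hM : IsPModular p M) {Ω : Type v} [Finite Ω] [Nonempty Ω] [MulAction A Ω]
    (htr : ∀ a b : Ω, ∃ s : S, toA hA s • a = b) (hpΩ : p ∣ Nat.card Ω)
    (hmf : ∀ θ : IrrCharacter S, mul (fun s => pch A Ω (toA hA s)) (θ : S → ℂ) = 0 ∨
      (mul (fun s => pch A Ω (toA hA s)) (θ : S → ℂ) = 1 ∧ Cyc p (θ : S → ℂ))) :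
    WitA p M S A hA (fun a => pch A Ω a - 1) := by
  classical
  have : Finite (MulAut S) := Finite.of_injective (fun f : MulAut S => (f : S → S)) DFunLike.coe_injective
  have := Fintype.ofFinite A
  let _ : MulAction S Ω := MulAction.compHom Ω (toA hA)
  have hS : (fun s => pch A Ω (toA hA s)) = pch S Ω := rfl
  rw [hS] at hmf
  have h1S : classInner (pch S Ω) (fun _ : S => (1 : ℂ)) = 1 := inner_one Ω htr
  have h1A : classInner (pch A Ω) (fun _ : A => (1 : ℂ)) = 1 :=
    inner_one Ω fun a b => by
      obtain ⟨s, hs⟩ := htr a b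
      exact ⟨_, hs⟩
  have hpos : 0 < Nat.card Ω := Nat.card_pos
  refine ⟨?_, ?_, ?_, ?_, ?_⟩
  · exact H668.CharPeel.isCharacter_sub (isCharacter_pch A Ω) Blocks.Basic.isIrrCharacter_one (by rw [h1A]; exact one_ne_zero)
  · intro k hk _ g
    show pch A Ω (g ^ k) - 1 = pch A Ω g - 1
    rw [pch_pow Ω hk]
  · refine ⟨Nat.card Ω - 1, ?_, ?_⟩
    · show pch A Ω 1 - 1 = _
      rw [pch_one, Nat.cast_sub hpos, Nat.cast_one]
    · intro hd
      have h2 : p ∣ 1 := by
        have h3 := (Nat.dvd_sub hpΩ hd)
        rwa [show Nat.card Ω - (Nat.card Ω - 1) = 1 by omega] at h3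
      exact hp.out.one_lt.ne' (Nat.dvd_one.1 h2)
  · intro θ
    have hres : res hA (fun a => pch A Ω a - 1) = fun s => pch S Ω s - 1 := rfl
    have hsub : mul (res hA (fun a => pch A Ω a - 1)) (θ : S → ℂ) =
        classInner (pch S Ω) (θ : S → ℂ) - classInner (fun _ : S => (1 : ℂ)) (θ : S → ℂ) := by
      rw [hres, mul_eq, classInner_def, classInner_def, classInner_def, ← mul_sub, ← Finset.sum_sub_distrib]
      congr 1
      exact Finset.sum_congr rfl fun s _ => by rw [sub_mul]
    by_cases hθ : (θ : S → ℂ) = fun _ => 1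
    · left
      rw [hsub, hθ, h1S, classInner_def]
      have h0 : (Nat.card S : ℂ) ≠ 0 := by exact_mod_cast Nat.card_pos.ne'
      rw [Finset.sum_congr rfl fun s _ => by rw [map_one, mul_one], Finset.sum_const, Finset.card_univ,
        ← Nat.card_eq_fintype_card, nsmul_eq_mul, mul_one, inv_mul_cancel₀ h0, sub_self]
    · have h0 : classInner (fun _ : S => (1 : ℂ)) (θ : S → ℂ) = 0 := by
        exact classInner_irr_ne Blocks.Basic.isIrrCharacter_one θ.2 (fun h => hθ h.symm)
      rw [hsub, h0, sub_zero]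
      rcases hmf θ with h2 | ⟨h2, h3⟩
      · exact Or.inl h2
      · exact Or.inr ⟨h2, hθ, h3⟩
  · rintro a - ⟨Q, hQ⟩
    show MemLocalIdeal M (pch A Ω a - 1 - (pch A Ω 1 - 1))
    rw [sub_sub_sub_cancel_right, pch_one]
    -- `Q` acts on the fixed points of `a` without fixed points
    have hfix : p ∣ Nat.card (fixedBy Ω a) := by
      let _ : MulAction (Q : Subgroup S) (fixedBy Ω a) :=
        { smul := fun q x => ⟨(q : S) • (x : Ω), by
            rw [mem_fixedBy]
            have h2 : a * toA hA q = toA hA q * a := by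
              apply Subtype.ext
              apply MulEquiv.ext
              intro y
              show (a : MulAut S) ((q : S) * y * (q : S)⁻¹) = (q : S) * (a : MulAut S) y * (q : S)⁻¹
              rw [map_mul, map_mul, map_inv, hQ q q.2]
            show a • (toA hA q • (x : Ω)) = toA hA q • (x : Ω)
            rw [← mul_smul, h2, mul_smul, mem_fixedBy.1 x.2]⟩
          one_smul := fun x => Subtype.ext (one_smul S (x : Ω))
          mul_smul := fun q r x => Subtype.ext (mul_smul (q : S) (r : S) (x : Ω)) }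
      have h2 := Q.2.card_modEq_card_fixedPoints (fixedBy Ω a)
      have h3 : fixedPoints (Q : Subgroup S) (fixedBy Ω a) = ∅ := by
        rw [Set.eq_empty_iff_forall_notMem]
        intro x hx
        have h4 : (Q : Subgroup S) ≤ stabilizer S (x : Ω) := by
          intro q hq
          have h5 := hx ⟨q, hq⟩
          exact congrArg Subtype.val h5
        have h5 : (stabilizer S (x : Ω)).index = Nat.card Ω := by
          have : IsPretransitive S Ω := ⟨htr⟩
          rw [index_stabilizer, orbit_eq_univ, Set.ncard_univ]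
        have h6 : ¬ p ∣ (stabilizer S (x : Ω)).index := fun h7 => Q.not_dvd_index (h7.trans (index_dvd_of_le h4))
        rw [h5] at h6
        exact h6 hpΩ
      rw [h3] at h2
      have h4 : Nat.card (∅ : Set (fixedBy Ω a)) = 0 := by rw [Nat.card_coe_set_eq, Set.ncard_empty]
      rw [h4] at h2
      exact (Nat.modEq_zero_iff_dvd).1 h2
    have h2 : MemLocalIdeal M ((Nat.card (fixedBy Ω a) : ℂ)) := (Blocks.LocalRing.memLocalIdeal_natCast_iff hM _).2 hfix
    have h3 : MemLocalIdeal M ((Nat.card Ω : ℂ)) := (Blocks.LocalRing.memLocalIdeal_natCast_iff hM _).2 hpΩ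
    have hMp : M.IsPrime := Blocks.Local.isPrime_of_isPModular hM
    exact Blocks.Local.memLocalIdeal_sub h2 h3

/-! ### conjugates of a subgroup -/

/-- the subgroups conjugate to `H` -/
def Cj (H : Subgroup S) : Type u := {K : Subgroup S // ∃ s : S, K = H.map (MulAut.conj s).toMonoidHom}

instance (H : Subgroup S) : Finite (Cj H) := by
  unfold Cj
  infer_instance

instance (H : Subgroup S) : Nonempty (Cj H) := ⟨⟨H, 1, by
  rw [map_one]
  exact (Subgroup.map_id H).symm⟩⟩

theorem map_conj_map (a : MulAut S) (s : S) (H : Subgroup S) :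
    (H.map (MulAut.conj s).toMonoidHom).map a.toMonoidHom =
      (H.map a.toMonoidHom).map (MulAut.conj (a s)).toMonoidHom := by
  rw [Subgroup.map_map, Subgroup.map_map]
  congr 1
  ext x
  show a (s * x * s⁻¹) = a s * a x * (a s)⁻¹
  rw [map_mul, map_mul, map_inv]

theorem map_conj_conj (s t : S) (H : Subgroup S) :
    (H.map (MulAut.conj s).toMonoidHom).map (MulAut.conj t).toMonoidHom = H.map (MulAut.conj (t * s)).toMonoidHom := by
  rw [Subgroup.map_map]
  congr 1
  ext x
  show t * (s * x * s⁻¹) * t⁻¹ = t * s * x * (t * s)⁻¹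
  group

/-- the action of `A` on the conjugates of `H` -/
@[reducible] def actCj (H : Subgroup S) (hst : ∀ a ∈ A, ∃ s : S, H.map a.toMonoidHom = H.map (MulAut.conj s).toMonoidHom) :
    MulAction A (Cj H) where
  smul a K := ⟨K.1.map (a : MulAut S).toMonoidHom, by
    obtain ⟨K, s, rfl⟩ := K
    obtain ⟨t, ht⟩ := hst a a.2
    exact ⟨_, by rw [map_conj_map, ht, map_conj_conj]⟩⟩
  one_smul K := Subtype.ext (Subgroup.map_id K.1)
  mul_smul a b K := Subtype.ext (by
    show K.1.map _ = (K.1.map _).map _
    rw [Subgroup.map_map]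
    rfl)

/-- the cosets and the conjugates -/
noncomputable def cosetEquiv (H : Subgroup S) (hN : ∀ s : S, (∀ h ∈ H, s * h * s⁻¹ ∈ H) → s ∈ H) : S ⧸ H ≃ Cj H :=
  Equiv.ofBijective (fun c => Quotient.liftOn' c (fun s => (⟨H.map (MulAut.conj s).toMonoidHom, s, rfl⟩ : Cj H)) (by
    intro s t hst
    rw [QuotientGroup.leftRel_apply] at hst
    apply Subtype.ext
    have h1 : H.map (MulAut.conj (s⁻¹ * t)).toMonoidHom = H := by
      apply le_antisymm
      · rintro _ ⟨h, hh, rfl⟩
        exact H.mul_mem (H.mul_mem hst hh) (H.inv_mem hst)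
      · intro h hh
        exact ⟨(s⁻¹ * t)⁻¹ * h * (s⁻¹ * t), H.mul_mem (H.mul_mem (H.inv_mem hst) hh) hst, by
          show s⁻¹ * t * ((s⁻¹ * t)⁻¹ * h * (s⁻¹ * t)) * (s⁻¹ * t)⁻¹ = h
          group⟩
    show H.map (MulAut.conj s).toMonoidHom = H.map (MulAut.conj t).toMonoidHom
    have h2 : t = s * (s⁻¹ * t) := by group
    rw [h2, ← map_conj_conj, h1])) (by
    constructor
    · intro c d hcd
      induction c using QuotientGroup.induction_on with
      | H s =>
        induction d using QuotientGroup.induction_on with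
        | H t =>
          have h1 : H.map (MulAut.conj s).toMonoidHom = H.map (MulAut.conj t).toMonoidHom := congrArg Subtype.val hcd
          rw [QuotientGroup.eq]
          apply hN
          intro h hh
          have h2 : t * h * t⁻¹ ∈ H.map (MulAut.conj s).toMonoidHom := by
            rw [h1]
            exact ⟨h, hh, rfl⟩
          obtain ⟨h', hh', e⟩ := h2
          have e' : s * h' * s⁻¹ = t * h * t⁻¹ := e
          have h3 : s⁻¹ * t * h * (s⁻¹ * t)⁻¹ = h' := by
            have h4 : h' = s⁻¹ * (s * h' * s⁻¹) * s := by group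
            rw [h4, e']
            group
          rw [h3]
          exact hh'
    · rintro ⟨K, s, rfl⟩
      exact ⟨QuotientGroup.mk s, rfl⟩)

/-- the permutation character on the conjugates -/
theorem pch_Cj {H : Subgroup S} (hN : ∀ s : S, (∀ h ∈ H, s * h * s⁻¹ ∈ H) → s ∈ H)
    (hst : ∀ a ∈ A, ∃ s : S, H.map a.toMonoidHom = H.map (MulAut.conj s).toMonoidHom) (s : S) :
    @pch A _ (Cj H) (actCj H hst) (toA hA s) = pch S (S ⧸ H) s := by
  let _ := actCj H hst
  unfold pch
  congr 1
  refine (Nat.card_congr ((cosetEquiv H hN).subtypeEquiv fun c => ?_)).symm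
  induction c using QuotientGroup.induction_on with
  | H t =>
    rw [mem_fixedBy, mem_fixedBy]
    have h1 : toA hA s • cosetEquiv H hN (QuotientGroup.mk t) = cosetEquiv H hN (QuotientGroup.mk (s * t)) := by
      apply Subtype.ext
      exact map_conj_conj t s H
    rw [h1]
    have h2 : s • (QuotientGroup.mk t : S ⧸ H) = QuotientGroup.mk (s * t) := rfl
    rw [h2]
    exact ⟨fun h => congrArg _ h, fun h => (cosetEquiv H hN).injective h⟩

/-- **the witness from a self-normalizing subgroup with stable conjugacy class** -/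
theorem witA_of_subgroup (hM : IsPModular p M) (H : Subgroup S) (hN : ∀ s : S, (∀ h ∈ H, s * h * s⁻¹ ∈ H) → s ∈ H)
    (hst : ∀ a ∈ A, ∃ s : S, H.map a.toMonoidHom = H.map (MulAut.conj s).toMonoidHom) (hpH : p ∣ H.index)
    (hmf : ∀ θ : IrrCharacter S, mul (pch S (S ⧸ H)) (θ : S → ℂ) = 0 ∨
      (mul (pch S (S ⧸ H)) (θ : S → ℂ) = 1 ∧ Cyc p (θ : S → ℂ))) :
    ∃ Ψ : A → ℂ, WitA p M S A hA Ψ := by
  let _ := actCj H hst
  refine ⟨_, witA_of_perm hA hM (Ω := Cj H) ?_ ?_ ?_⟩
  · intro K L
    obtain ⟨c, rfl⟩ := (cosetEquiv H hN).surjective K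
    obtain ⟨d, rfl⟩ := (cosetEquiv H hN).surjective L
    induction c using QuotientGroup.induction_on with
    | H s =>
      induction d using QuotientGroup.induction_on with
      | H t =>
        refine ⟨t * s⁻¹, Subtype.ext ?_⟩
        have h1 := map_conj_conj s (t * s⁻¹) H
        rw [inv_mul_cancel_right] at h1
        exact h1
  · rw [← Nat.card_congr (cosetEquiv H hN)]
    exact hpH
  · have h1 : (fun s => pch A (Cj H) (toA hA s)) = pch S (S ⧸ H) := funext fun s => pch_Cj hA hN hst s
    rw [h1]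
    exact hmf

/-- **the row from a self-normalizing subgroup whose class is invariant under all automorphisms** -/
theorem rowA_of_subgroup (H : Subgroup S) (hN : ∀ s : S, (∀ h ∈ H, s * h * s⁻¹ ∈ H) → s ∈ H)
    (hst : ∀ a : MulAut S, ∃ s : S, H.map a.toMonoidHom = H.map (MulAut.conj s).toMonoidHom) (hpH : p ∣ H.index)
    (hmf : ∀ θ : IrrCharacter S, mul (pch S (S ⧸ H)) (θ : S → ℂ) = 0 ∨
      (mul (pch S (S ⧸ H)) (θ : S → ℂ) = 1 ∧ Cyc p (θ : S → ℂ))) : RowA p S :=
  fun _ hA _ hM => witA_of_subgroup hA.1 hM H hN (fun a _ => hst a) hpH hmf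

/-- a maximal subgroup of a nonabelian simple group is self-normalizing -/
theorem selfnorm_of_coatom [IsSimpleGroup S] {H : Subgroup S} (hH : IsCoatom H) (hne : H ≠ ⊥) :
    ∀ s : S, (∀ h ∈ H, s * h * s⁻¹ ∈ H) → s ∈ H := by
  intro s hs
  have hfin : Finite H := inferInstance
  have h1 : s ∈ normalizer (H : Set S) := by
    rw [mem_normalizer_iff]
    intro h
    refine ⟨hs h, fun h2 => ?_⟩
    -- conjugation by `s` maps `H` onto `H`
    have h3 : H.map (MulAut.conj s).toMonoidHom = H := by
      apply Subgroup.eq_of_le_of_card_ge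
      · rintro _ ⟨h, hh, rfl⟩
        exact hs h hh
      · rw [Subgroup.card_map_of_injective (f := (MulAut.conj s).toMonoidHom) (MulAut.conj s).injective]
    rw [← h3] at h2
    obtain ⟨h', hh', e⟩ := h2
    have e' : s * h' * s⁻¹ = s * h * s⁻¹ := e
    have e2 : h' = h := mul_left_cancel (mul_right_cancel e')
    rw [← e2]
    exact hh'
  have hle : H ≤ normalizer (H : Set S) := le_normalizer
  rcases eq_or_lt_of_le hle with h2 | h2
  · rw [h2]
    exact h1
  · exfalso
    have h3 := hH.2 _ h2
    have hn : H.Normal := normalizer_eq_top_iff.1 h3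
    rcases hn.eq_bot_or_eq_top with h4 | h4
    · exact hne h4
    · exact hH.1 h4

omit hp in
/-- integer valued characters -/
theorem cyc_of_int {G : Type u} [Group G] [Finite G] {χ : G → ℂ} (hχ : IsCharacter G χ)
    (h : ∀ g, ∃ z : ℤ, χ g = z) : Cyc p χ := by
  intro k hk _ g
  obtain ⟨σ, hσ⟩ := Cfsg.Agent.Characters.GaloisBasic.exists_ringEquiv_of_coprime hk
  rw [← hσ χ hχ g]
  obtain ⟨z, hz⟩ := h g
  rw [hz, map_intCast]

omit hp in
/-- rational valued characters -/
theorem cyc_of_rat {G : Type u} [Group G] [Finite G] {χ : G → ℂ} (hχ : IsCharacter G χ)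
    (h : ∀ g, ∃ z : ℚ, χ g = z) : Cyc p χ := by
  intro k hk _ g
  obtain ⟨σ, hσ⟩ := Cfsg.Agent.Characters.GaloisBasic.exists_ringEquiv_of_coprime hk
  rw [← hσ χ hχ g]
  obtain ⟨z, hz⟩ := h g
  rw [hz, map_ratCast]

end

end Cfsg.Agent.H118.PC
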